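import Mathlib
import Cfsg.Agent.H9.NG.A1
import Cfsg.Agent.H15.MB.Lift
import Cfsg.Agent.PLocal.ThompsonReplacement

/-!
# LIFT for `q ∈ {2, 3, 5}`

* `fac` : the action on a factor `M / M'`;
* `comm_le` : one factor of an invariant series, from the quadratic action `QK` in the holomorph of `M / M'`;
* `le_cent` : `K` centralises `N`;
* `lift_gen` : `K` is a component;
* `lift_q` : the external form; `Ctg.Z_le_core_of`.
-/

set_option autoImplicit false
set_option linter.unusedSectionVars false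

namespace Cfsg.Agent.H15.MB

open Subgroup
open scoped Pointwise commutatorElement
open Cfsg.Agent.QTComp.Basic
open Cfsg (piCoreOf layer IsComponent IsComponentOf IsQuasisimple IsElementaryAbelian calC)
open Cfsg.Agent.H9.NG (QK Ty AllTy)

universe u v w

section fac

variable {V : Type u} [Group V] {M M' : Subgroup V} {X : Type w} [Group X]

/-- an action on a normal section -/
def fac (φ : X →* MulAut V) (M M' : Subgroup V) (hn : (M'.subgroupOf M).Normal) (hM : ∀ x, ∀ m ∈ M, φ x m ∈ M)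
    (hM' : ∀ x, ∀ m ∈ M', φ x m ∈ M') : X →* MulAut (M ⧸ M'.subgroupOf M) where
  toFun x := QuotientGroup.congr (M'.subgroupOf M) (M'.subgroupOf M)
    ({ toFun := fun m => ⟨φ x m, hM x m m.2⟩
       invFun := fun m => ⟨φ x⁻¹ m, hM x⁻¹ m m.2⟩
       left_inv := fun m => Subtype.ext (by
        show φ x⁻¹ (φ x m) = m
        rw [← MulAut.mul_apply, ← map_mul, inv_mul_cancel, map_one, MulAut.one_apply])
       right_inv := fun m => Subtype.ext (by
        show φ x (φ x⁻¹ m) = m
        rw [← MulAut.mul_apply, ← map_mul, mul_inv_cancel, map_one, MulAut.one_apply])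
       map_mul' := fun m n => Subtype.ext (map_mul (φ x) (m : V) (n : V)) } : M ≃* M) (by
      ext m
      constructor
      · rintro ⟨n, hn, rfl⟩
        exact hM' x n hn
      · intro hm
        refine ⟨⟨φ x⁻¹ m, hM x⁻¹ m m.2⟩, hM' x⁻¹ m hm, Subtype.ext ?_⟩
        show φ x (φ x⁻¹ m) = m
        rw [← MulAut.mul_apply, ← map_mul, mul_inv_cancel, map_one, MulAut.one_apply])
  map_one' := by
    ext m
    obtain ⟨m, rfl⟩ := QuotientGroup.mk_surjective m
    show ((⟨φ 1 m, hM 1 m m.2⟩ : M) : M ⧸ M'.subgroupOf M) = m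
    congr 1
    apply Subtype.ext
    show φ 1 (m : V) = m
    rw [map_one, MulAut.one_apply]
  map_mul' x y := by
    ext m
    obtain ⟨m, rfl⟩ := QuotientGroup.mk_surjective m
    show ((⟨φ (x * y) m, hM (x * y) m m.2⟩ : M) : M ⧸ M'.subgroupOf M) =
      ((⟨φ x (φ y m), hM x _ (hM y m m.2)⟩ : M) : M ⧸ M'.subgroupOf M)
    congr 1
    apply Subtype.ext
    show φ (x * y) (m : V) = φ x (φ y m)
    rw [map_mul, MulAut.mul_apply]

theorem fac_mk {φ : X →* MulAut V} {hn : (M'.subgroupOf M).Normal} {hM : ∀ x, ∀ m ∈ M, φ x m ∈ M}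
    {hM' : ∀ x, ∀ m ∈ M', φ x m ∈ M'} (x : X) (m : M) :
    fac φ M M' hn hM hM' x (m : M ⧸ M'.subgroupOf M) = ((⟨φ x m, hM x m m.2⟩ : M) : M ⧸ M'.subgroupOf M) := rfl

theorem mk_eq [(M'.subgroupOf M).Normal] {m n : M} :
    (m : M ⧸ M'.subgroupOf M) = (n : M ⧸ M'.subgroupOf M) ↔ (m : V)⁻¹ * n ∈ M' := by
  rw [QuotientGroup.eq]
  exact Iff.rfl

end fac

section step

variable {A : Type v} [CommGroup A] {V : Type u} [Group V] [Finite V] {p q : ℕ} {φ : A →* MulAut V}
  {K R N Y C : Subgroup V}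

/-- the hypotheses for the quadratic action of `K` -/
structure QH (p q : ℕ) (φ : A →* MulAut V) (a : A) (K R N Y C : Subgroup V) : Prop where
  perf : ⁅K, K⁆ = K
  le : K ⊓ R ≤ N
  simple : ∀ W : Subgroup V, W ≤ K → K ≤ normalizer (W : Set V) → W ≤ R ∨ K ≤ W ⊔ R
  pow : a ^ p = 1
  Ka : ∀ k, φ a k ∈ K ↔ k ∈ K
  Csol : Group.IsSolvable C
  mC : ∀ k ∈ K, k⁻¹ * φ a k ∈ R → k ∈ C
  YK : Y ≤ K
  Yfix : ∀ y ∈ Y, y⁻¹ * φ a y ∈ R
  Yne : ¬ Y ≤ R
  Yq : IsPGroup q Y
  CY : C ≤ normalizer (Y : Set V)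
  Nq : IsPGroup q N
  quad : ⁅⁅N, Y⁆, Y⁆ = ⊥

/-- one factor -/
theorem comm_le {a : A} (h : QH p q φ a K R N Y C) [hR : R.Normal] [hNn : N.Normal]
    (hQK : QK p q ↥(K.map (QuotientGroup.mk' R))) {M : Subgroup V} (hM : M.Normal) (hMi : Cfsg.Agent.H9.Act.Inv φ M)
    (hNi : Cfsg.Agent.H9.Act.Inv φ N) (hMN : M ≤ N) : ⁅M, K⁆ ≤ ⁅M, N⁆ := by
  set M' := ⁅M, N⁆ with hM'
  have hM'n : M'.Normal := commutator_normal M N
  have hn : (M'.subgroupOf M).Normal := hM'n.subgroupOf M
  have hMi' : Cfsg.Agent.H9.Act.Inv φ M' := by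
    intro b
    have h1 : ⁅M, N⁆ ≤ M'.comap (φ b).toMonoidHom := by
      rw [commutator_le]
      intro m hm n hn
      show φ b ⁅m, n⁆ ∈ M'
      rw [map_commutatorElement]
      exact commutator_mem_commutator (hMi b m hm) (hNi b n hn)
    exact fun x hx => h1 hx
  let H : Type u := M ⧸ M'.subgroupOf M
  let ψ : A →* MulAut H := fac φ M M' hn hMi hMi'
  let κ : V →* MulAut H := fac MulAut.conj M M' hn (fun x m hm => hM.conj_mem m hm x)
    (fun x m hm => hM'n.conj_mem m hm x)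
  have hrel : ∀ (b : A) (v : V), ψ b * κ v * (ψ b)⁻¹ = κ (φ b v) := by
    intro b v
    rw [mul_inv_eq_iff_eq_mul]
    ext x
    obtain ⟨m, rfl⟩ := QuotientGroup.mk_surjective x
    show ((⟨φ b (v * m * v⁻¹), _⟩ : M) : H) = ((⟨φ b v * φ b m * (φ b v)⁻¹, _⟩ : M) : H)
    congr 1
    apply Subtype.ext
    show φ b (v * m * v⁻¹) = φ b v * φ b m * (φ b v)⁻¹
    rw [map_mul, map_mul, map_inv]
  have hκN : ∀ v ∈ N, κ v = 1 := by
    intro v hv
    ext x
    obtain ⟨m, rfl⟩ := QuotientGroup.mk_surjective x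
    show ((⟨v * m * v⁻¹, _⟩ : M) : H) = (m : H)
    rw [mk_eq]
    have h1 : ⁅v, (m : V)⁻¹⁆ ∈ M' := by
      rw [hM', commutator_comm]
      exact commutator_mem_commutator hv (M.inv_mem m.2)
    have h2 : (v * (m : V) * v⁻¹)⁻¹ * m = ⁅v, (m : V)⁻¹⁆ := by
      rw [commutatorElement_def]; group
    show (v * (m : V) * v⁻¹)⁻¹ * m ∈ M'
    rw [h2]; exact h1
  have hκ1 : ∀ k ∈ K, k ∈ R → κ k = 1 := fun k hk hkR => hκN k (h.le ⟨hk, hkR⟩)
  -- it is enough that `K` acts trivially
  suffices hmain : ∀ k ∈ K, κ k = 1 by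
    rw [commutator_le]
    intro m hm k hk
    have h1 : κ k (((⟨m, hm⟩ : M)⁻¹ : M) : H) = (((⟨m, hm⟩ : M)⁻¹ : M) : H) := by rw [hmain k hk]; rfl
    have h2 : ((⟨k * m⁻¹ * k⁻¹, hM.conj_mem _ (M.inv_mem hm) k⟩ : M) : H) = (((⟨m, hm⟩ : M)⁻¹ : M) : H) := h1
    have h3 := mk_eq.mp h2.symm
    have h4 : ((((⟨m, hm⟩ : M)⁻¹ : M) : V))⁻¹ * (k * m⁻¹ * k⁻¹) = ⁅m, k⁆ := by
      show (m⁻¹)⁻¹ * (k * m⁻¹ * k⁻¹) = _
      rw [commutatorElement_def]; group
    rw [← h4]
    exact h3
  by_contra hcon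
  have hκR : ∀ k ∈ K, κ k = 1 → k ∈ R := by
    have hWn : K ≤ normalizer ((K ⊓ κ.ker : Subgroup V) : Set V) :=
      H309.NS.le_normalizer_inf le_normalizer (by rw [κ.ker.normalizer_eq_top]; exact le_top)
    rcases h.simple (K ⊓ κ.ker) inf_le_left hWn with h1 | h1
    · exact fun k hk hk1 => h1 ⟨hk, hk1⟩
    · exfalso
      apply hcon
      intro k hk
      obtain ⟨w, hw, r, hr, hwr⟩ := (Subgroup.mem_sup_of_normal_right).mp (h1 hk)
      have h2 : r ∈ K := by
        have : r = w⁻¹ * k := by rw [← hwr]; group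
        rw [this]
        exact K.mul_mem (K.inv_mem hw.1) hk
      have h3 : κ w = 1 := hw.2
      rw [← hwr, map_mul, h3, hκ1 r h2 hr, one_mul]
  apply hcon
  -- the holomorph
  let G' : Type u := H ⋊[MonoidHom.id (MulAut H)] MulAut H
  let ι : MulAut H →* G' := SemidirectProduct.inr
  let g : V →* G' := ι.comp κ
  let f : M →* G' := (SemidirectProduct.inl : H →* G').comp (QuotientGroup.mk' (M'.subgroupOf M))
  let b : G' := ι (ψ a)
  have hbg : ∀ v, b * g v * b⁻¹ = g (φ a v) := by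
    intro v
    show ι (ψ a) * ι (κ v) * (ι (ψ a))⁻¹ = ι (κ (φ a v))
    rw [← map_inv, ← map_mul, ← map_mul, hrel]
  have hg1 : ∀ v, g v = 1 ↔ κ v = 1 := by
    intro v
    show ι (κ v) = 1 ↔ _
    rw [← map_one ι]
    exact SemidirectProduct.inr_injective.eq_iff
  have hgf : ∀ (v : V) (m : M), g v * f m * (g v)⁻¹ = f ⟨v * m * v⁻¹, hM.conj_mem m m.2 v⟩ := by
    intro v m
    show (SemidirectProduct.inr (κ v) : G') * SemidirectProduct.inl (m : H) * (SemidirectProduct.inr (κ v))⁻¹ = _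
    rw [← map_inv, ← SemidirectProduct.inl_aut]
    rfl
  have hfN : f.range.Normal := by
    have h1 : f.range = (SemidirectProduct.rightHom : G' →* MulAut H).ker := by
      rw [← SemidirectProduct.range_inl_eq_ker_rightHom]
      show ((SemidirectProduct.inl : H →* G').comp (QuotientGroup.mk' (M'.subgroupOf M))).range = _
      rw [MonoidHom.range_comp, MonoidHom.range_eq_top.mpr (QuotientGroup.mk'_surjective _), MonoidHom.range_eq_map]
    rw [h1]
    infer_instance
  have hfin : Finite G' := Finite.of_equiv _ (SemidirectProduct.equivProd (φ := MonoidHom.id (MulAut H))).symm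
  have hb : ∀ k ∈ K, b * g k = g k * b → k ∈ C := by
    intro k hk hbk
    have h1 : g (φ a k) = g k := by rw [← hbg, hbk, mul_inv_cancel_right]
    have h2 : g (k⁻¹ * φ a k) = 1 := by rw [map_mul, h1, map_inv, inv_mul_cancel]
    exact h.mC k hk (hκR _ (K.mul_mem (K.inv_mem hk) ((h.Ka k).mpr hk)) ((hg1 _).mp h2))
  have hL : (K.map g) ⊓ centralizer {b} ≤ C.map g := by
    rintro _ ⟨⟨k, hk, rfl⟩, hc⟩
    have hc' : g k * b = b * g k := mem_centralizer_singleton_iff.mp hc
    exact ⟨k, hb k hk hc'.symm, rfl⟩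
  have key := hQK G' (K.map g) f.range (Y.map g) b ?_ ?_ ?_ ?_ ?_ ?_ ?_ ?_ ?_ ?_ ?_ ?_
  · intro k hk
    ext x
    obtain ⟨m, rfl⟩ := QuotientGroup.mk_surjective x
    have h1 := key (f m) ⟨m, rfl⟩ (g k) ⟨k, hk, rfl⟩
    have h2 : g k * f m * (g k)⁻¹ = f m := by rw [← h1, mul_inv_cancel_right]
    rw [hgf] at h2
    exact SemidirectProduct.inl_injective h2
  · -- `L' ≃ T`
    have hker : (g.subgroupMap K).ker = ((QuotientGroup.mk' R).subgroupMap K).ker := by
      ext k
      rw [MonoidHom.mem_ker, MonoidHom.mem_ker]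
      constructor
      · intro h1
        have h2 : g (k : V) = 1 := congrArg Subtype.val h1
        exact Subtype.ext ((QuotientGroup.eq_one_iff (k : V)).mpr (hκR k k.2 ((hg1 _).mp h2)))
      · intro h1
        have h2 : QuotientGroup.mk' R (k : V) = 1 := congrArg Subtype.val h1
        exact Subtype.ext ((hg1 _).mpr (hκ1 k k.2 ((QuotientGroup.eq_one_iff (k : V)).mp h2)))
    exact ⟨(QuotientGroup.quotientKerEquivOfSurjective _ (g.subgroupMap_surjective K)).symm.trans
      ((QuotientGroup.quotientMulEquivOfEq hker).trans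
        (QuotientGroup.quotientKerEquivOfSurjective _ ((QuotientGroup.mk' R).subgroupMap_surjective K)))⟩
  · rw [← map_pow, ← map_pow, h.pow, map_one, map_one]
  · rw [mem_normalizer_iff]
    intro x
    constructor
    · rintro ⟨k, hk, rfl⟩
      rw [hbg]
      exact ⟨_, (h.Ka k).mpr hk, rfl⟩
    · rintro ⟨k, hk, hkx⟩
      have h1 : φ a (φ a⁻¹ k) = k := by
        rw [← MulAut.mul_apply, ← map_mul, mul_inv_cancel, map_one, MulAut.one_apply]
      refine ⟨φ a⁻¹ k, (h.Ka _).mp (by rw [h1]; exact hk), ?_⟩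
      have h2 := hbg (φ a⁻¹ k)
      rw [h1, hkx] at h2
      exact mul_left_cancel (mul_right_cancel h2)
  · exact H275.NS.solv_le hL (H275.NS.isSolvable_map h.Csol g)
  · have h1 : IsPGroup q M := h.Nq.to_le hMN
    exact h1.of_surjective f.rangeRestrict f.rangeRestrict_surjective
  · rw [f.range.normalizer_eq_top]; exact le_top
  · rw [f.range.normalizer_eq_top]; exact mem_top b
  · rintro _ ⟨y, hy, rfl⟩
    refine ⟨⟨y, h.YK hy, rfl⟩, ?_⟩
    show g y ∈ centralizer {b}
    rw [mem_centralizer_singleton_iff]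
    have h1 : g (y⁻¹ * φ a y) = 1 :=
      (hg1 _).mpr (hκ1 _ (K.mul_mem (K.inv_mem (h.YK hy)) ((h.Ka y).mpr (h.YK hy))) (h.Yfix y hy))
    rw [map_mul, map_inv, inv_mul_eq_one, ← hbg] at h1
    exact (eq_mul_inv_iff_mul_eq.mp h1)
  · intro h0
    apply h.Yne
    intro y hy
    refine hκR y (h.YK hy) ((hg1 y).mp ?_)
    rw [← mem_bot, ← h0]
    exact ⟨y, hy, rfl⟩
  · exact h.Yq.map g
  · exact hL.trans ((map_mono h.CY).trans (le_normalizer_map g))
  · have hc : ∀ (m : M) (y : V), ⁅f m, g y⁆ = f ⟨⁅(m : V), y⁆, by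
        rw [commutatorElement_def, mul_assoc, mul_assoc, ← mul_assoc y]
        exact M.mul_mem m.2 (hM.conj_mem _ (M.inv_mem m.2) y)⟩ := by
      intro m y
      have h1 := hgf y m⁻¹
      have h2 : ⁅f m, g y⁆ = f m * (g y * f m⁻¹ * (g y)⁻¹) := by
        rw [commutatorElement_def, map_inv]
        simp only [mul_assoc]
      rw [h2, h1, ← map_mul]
      congr 1
      apply Subtype.ext
      show (m : V) * (y * (m : V)⁻¹ * y⁻¹) = ⁅(m : V), y⁆
      rw [commutatorElement_def]; group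
    have h1 : ⁅f.range, Y.map g⁆ ≤ ((⁅N, Y⁆ : Subgroup V).subgroupOf M).map f := by
      rw [commutator_le]
      rintro _ ⟨m, rfl⟩ _ ⟨y, hy, rfl⟩
      rw [hc]
      exact ⟨_, commutator_mem_commutator (hMN m.2) hy, rfl⟩
    rw [eq_bot_iff]
    refine (commutator_mono h1 le_rfl).trans ?_
    rw [commutator_le]
    rintro _ ⟨m, hm, rfl⟩ _ ⟨y, hy, rfl⟩
    rw [hc, mem_bot]
    have h2 : ⁅(m : V), y⁆ ∈ (⊥ : Subgroup V) := by
      rw [← h.quad]
      exact commutator_mem_commutator hm hy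
    rw [mem_bot] at h2
    rw [← map_one f]
    congr 1
    exact Subtype.ext h2

/-- `K` centralises `N` -/
theorem le_cent {a : A} (h : QH p q φ a K R N Y C) [hR : R.Normal] [hNn : N.Normal] [Fact q.Prime]
    (hQK : QK p q ↥(K.map (QuotientGroup.mk' R))) (hNi : Cfsg.Agent.H9.Act.Inv φ N) :
    K ≤ centralizer (N : Set V) := by
  have hnil : Group.IsNilpotent N := h.Nq.isNilpotent
  have key : ∀ n : ℕ, ∀ M : Subgroup V, Nat.card M = n → M.Normal → Cfsg.Agent.H9.Act.Inv φ M → M ≤ N →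
      ⁅M, K⁆ = ⊥ := by
    intro n
    induction n using Nat.strong_induction_on with
    | _ n ih =>
      intro M hn hM hMi hMN
      by_cases hM1 : M = ⊥
      · rw [hM1, commutator_bot_left]
      have hle : ⁅M, N⁆ ≤ M := commutator_le_left M N
      have hlt : ⁅M, N⁆ < M := by
        refine lt_of_le_of_ne hle fun heq => hM1 ?_
        exact PLocal.ThompsonReplacement.eq_bot_of_le_commutator hnil hMN heq.ge
      have hMi' : Cfsg.Agent.H9.Act.Inv φ ⁅M, N⁆ := by
        intro b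
        have h1 : ⁅M, N⁆ ≤ (⁅M, N⁆ : Subgroup V).comap (φ b).toMonoidHom := by
          rw [commutator_le]
          intro m hm n hn
          show φ b ⁅m, n⁆ ∈ ⁅M, N⁆
          rw [map_commutatorElement]
          exact commutator_mem_commutator (hMi b m hm) (hNi b n hn)
        exact fun x hx => h1 hx
      have h1 := ih _ (hn ▸ Set.Finite.card_lt_card (Set.toFinite _) hlt) ⁅M, N⁆ rfl (commutator_normal M N) hMi'
        (hle.trans hMN)
      have h2 := comm_le h hQK hM hMi hNi hMN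
      have h3 : ⁅⁅M, K⁆, K⁆ = ⊥ := by
        rw [eq_bot_iff, ← h1]
        exact commutator_mono h2 le_rfl
      have h4 : ⁅⁅K, M⁆, K⁆ = ⊥ := by rwa [commutator_comm K M]
      have h5 := commutator_commutator_eq_bot_of_rotate h4 h3
      rwa [h.perf, commutator_comm] at h5
  have h1 := key _ N rfl hNn hNi le_rfl
  rw [commutator_comm, commutator_eq_bot_iff_le_centralizer] at h1
  exact h1

end step

section gen

variable {V : Type u} [Group V] [Finite V] {s : ℕ} {R Y N : Subgroup V}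

/-- **`K` is a component** -/
theorem lift_gen (hs : s.Prime) (hR : IsRad R) [hRn : R.Normal] [hNn : N.Normal]
    (hNs : IsPGroup s N) (hNm : ∀ W : Subgroup V, W.IsSubnormal → IsPGroup s W → W ≤ N) (hRY : ⁅R, Y⁆ ≤ N)
    {K : Subgroup V} (hK : K ∈ calC V) (hYK : Y ≤ normalizer (K : Set V))
    (hne : ¬ ∀ y ∈ Y.map (QuotientGroup.mk' R), ∀ t ∈ K.map (QuotientGroup.mk' R), y * t = t * y)
    (hcov : ∀ (E : Type u) [Group E] [Finite E], IsQuasisimple E →
      Nonempty ((E ⧸ center E) ≃* K.map (QuotientGroup.mk' R)) → Nat.card (center E) ∣ s)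
    (hcm : K ⊓ R ≤ N → K ≤ centralizer (N : Set V)) :
    IsComponent K ∧ ¬ ∀ y ∈ Y, ∀ x ∈ K, y * x = x * y := by
  have hsf : Fact s.Prime := ⟨hs⟩
  set π := QuotientGroup.mk' R with hπ
  have hTs : IsSimpleGroup (K.map π) := map_simple hR hK
  have hKp : ⁅K, K⁆ = K := calC_perfect hK
  have hKsub : K.IsSubnormal := calC_subnormal hK
  have hTna : ¬ IsMulCommutative (K.map π) := not_comm_of_perfect (by
    intro h
    rw [Subgroup.map_eq_bot_iff, hπ, QuotientGroup.ker_mk'] at h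
    exact hK.1 (eq_bot_of_perfect_of_solvable hK.2.1 (H275.NS.solv_le h hR.solv))) (perfect_map _ hKp)
  have hTc : center (K.map π) = ⊥ := by
    rcases (inferInstance : (center (K.map π)).Normal).eq_bot_or_eq_top with h | h
    · exact h
    · exfalso
      apply hTna
      exact ⟨⟨fun a b => by
        have : b ∈ center (K.map π) := by rw [h]; exact mem_top b
        exact (mem_center_iff.1 this) a⟩⟩
  -- `[K, Y] = K`
  have hKY : ⁅K, Y⁆ = K := by
    have hle : ⁅K, Y⁆ ≤ K := Lib.CoprimeCommutator.commutator_le_left hYK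
    by_contra hcon
    have hlt : ⁅K, Y⁆ < K := lt_of_le_of_ne hle hcon
    have hn : ((⁅K, Y⁆ : Subgroup V).subgroupOf K).Normal := Subgroup.normal_subgroupOf_of_le_normalizer
      (Lib.CoprimeCommutator.left_le_normalizer_commutator K Y)
    have hsn : (⁅K, Y⁆ : Subgroup V).IsSubnormal := by
      have h4 := IsSubnormal.trans' hn.isSubnormal hKsub
      rwa [subgroupOf_map_subtype, inf_eq_left.mpr hle] at h4
    have hsol := calC_solvable_of_lt hK hsn hlt
    have hKYR := hR.le_of_subnormal hsn hsol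
    apply hne
    rintro _ ⟨y, hy, rfl⟩ _ ⟨k, hk, rfl⟩
    have h5 : ⁅k, y⁆ ∈ R := hKYR (commutator_mem_commutator hk hy)
    have h6 : π ⁅k, y⁆ = 1 := (QuotientGroup.eq_one_iff _).2 h5
    rw [map_commutatorElement, commutatorElement_eq_one_iff_mul_comm] at h6
    exact h6.symm
  -- `[R, K] ≤ N`
  set M : Subgroup V := (centralizer (R.map (QuotientGroup.mk' N) : Set (V ⧸ N))).comap (QuotientGroup.mk' N) with hM
  have hMn : M.Normal := by
    have h4 : (R.map (QuotientGroup.mk' N)).Normal := hRn.map _ (QuotientGroup.mk'_surjective N)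
    have h5 : (centralizer (R.map (QuotientGroup.mk' N) : Set (V ⧸ N))).Normal := inferInstance
    exact h5.comap _
  have hmemM : ∀ v, v ∈ M ↔ ∀ r ∈ R, ⁅r, v⁆ ∈ N := by
    intro v
    rw [hM, mem_comap, mem_centralizer_iff]
    constructor
    · intro h r hr
      have h4 := h _ ⟨r, hr, rfl⟩
      rw [← QuotientGroup.eq_one_iff]
      show QuotientGroup.mk' N ⁅r, v⁆ = 1
      rw [map_commutatorElement, commutatorElement_eq_one_iff_mul_comm]
      exact h4
    · rintro h _ ⟨r, hr, rfl⟩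
      have h4 : QuotientGroup.mk' N ⁅r, v⁆ = 1 := (QuotientGroup.eq_one_iff _).2 (h r hr)
      rw [map_commutatorElement, commutatorElement_eq_one_iff_mul_comm] at h4
      exact h4
  have hYM : Y ≤ M := fun y hy => (hmemM y).2 fun r hr => hRY (commutator_mem_commutator hr hy)
  have hKM : K ≤ M := by
    rw [← hKY, commutator_le]
    intro k hk y hy
    have h4 := hMn.conj_mem y (hYM hy) k
    rw [commutatorElement_def]
    exact M.mul_mem h4 (M.inv_mem (hYM hy))
  have hRK : ⁅R, K⁆ ≤ N := by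
    rw [commutator_le]
    exact fun r hr k hk => (hmemM k).1 (hKM hk) r hr
  -- the quotient `K / (K ⊓ N)`
  have hpow : ∀ k ∈ K, k ∈ R → k ^ s ∈ N := by
    let N' : Subgroup K := N.subgroupOf K
    have hN'n : N'.Normal := hNn.subgroupOf K
    let E := K ⧸ N'
    let g0 : K →* K.map π := π.subgroupMap K
    have hg0 : Function.Surjective g0 := π.subgroupMap_surjective K
    have hNR : N ≤ R := hR.le N hNn (by have := hNs.isNilpotent; infer_instance)
    have hker0 : N' ≤ g0.ker := by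
      intro k hk
      rw [MonoidHom.mem_ker]
      apply Subtype.ext
      show π (k : V) = 1
      exact (QuotientGroup.eq_one_iff (k : V)).2 (hNR hk)
    let g : E →* K.map π := QuotientGroup.lift N' g0 hker0
    have hg : Function.Surjective g := QuotientGroup.lift_surjective_of_surjective _ _ hg0 _
    have hgk : ∀ e : E, g e = 1 ↔ ∃ k : K, (k : V) ∈ R ∧ (QuotientGroup.mk k : E) = e := by
      intro e
      obtain ⟨k, rfl⟩ := QuotientGroup.mk_surjective e
      constructor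
      · intro h
        refine ⟨k, ?_, rfl⟩
        have h4 : g0 k = 1 := h
        have h5 : π (k : V) = 1 := congrArg Subtype.val h4
        exact (QuotientGroup.eq_one_iff (k : V)).1 h5
      · rintro ⟨k', hk', he⟩
        rw [← he]
        show g0 k' = 1
        apply Subtype.ext
        exact (QuotientGroup.eq_one_iff (k' : V)).2 hk'
    have hcen : center E = g.ker := by
      apply le_antisymm
      · intro e he
        rw [MonoidHom.mem_ker]
        have h4 : g e ∈ center (K.map π) := by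
          rw [mem_center_iff]
          intro t
          obtain ⟨e', rfl⟩ := hg t
          rw [← map_mul, ← map_mul, mem_center_iff.1 he e']
        rwa [hTc, mem_bot] at h4
      · intro e he
        rw [MonoidHom.mem_ker, hgk] at he
        obtain ⟨k, hkR, rfl⟩ := he
        rw [mem_center_iff]
        intro e'
        obtain ⟨k', rfl⟩ := QuotientGroup.mk_surjective e'
        rw [← QuotientGroup.mk_mul, ← QuotientGroup.mk_mul, QuotientGroup.eq]
        show ((k' * k)⁻¹ * (k * k') : K) ∈ N'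
        rw [mem_subgroupOf]
        have h5 : ⁅(k : V)⁻¹, (k' : V)⁻¹⁆ ∈ N := hRK (commutator_mem_commutator (R.inv_mem hkR) (K.inv_mem k'.2))
        have h6 : (((k' * k)⁻¹ * (k * k') : K) : V) = ⁅(k : V)⁻¹, (k' : V)⁻¹⁆ := by
          rw [commutatorElement_def]
          push_cast
          group
        rw [h6]
        exact h5
    have hEp : Group.IsPerfect E := by
      have h4 : Group.IsPerfect K := isPerfect_iff.2 hKp
      exact Group.IsPerfect.ofSurjective (QuotientGroup.mk'_surjective N')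
    have e1 : (E ⧸ center E) ≃* K.map π :=
      (QuotientGroup.quotientMulEquivOfEq hcen).trans (QuotientGroup.quotientKerEquivOfSurjective g hg)
    have hEq : IsQuasisimple E := ⟨hEp, e1.isSimpleGroup⟩
    have h4 := hcov E hEq ⟨e1⟩
    intro k hkK hkR
    have h5 : (QuotientGroup.mk (⟨k, hkK⟩ : K) : E) ∈ center E := by
      rw [hcen, MonoidHom.mem_ker, hgk]
      exact ⟨⟨k, hkK⟩, hkR, rfl⟩
    have h6 : (⟨_, h5⟩ : center E) ^ s = 1 := by
      obtain ⟨c, hc⟩ := h4
      conv_lhs => rw [hc]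
      rw [pow_mul, pow_card_eq_one', one_pow]
    have h7 : (QuotientGroup.mk ((⟨k, hkK⟩ : K) ^ s) : E) = 1 := congrArg Subtype.val h6
    exact (QuotientGroup.eq_one_iff ((⟨k, hkK⟩ : K) ^ s)).1 h7
  have hKR : K ⊓ R ≤ N := by
    refine hNm _ ?_ ?_
    · have h4 : ((K ⊓ R).subgroupOf K).Normal := by
        rw [inf_subgroupOf_left]
        infer_instance
      have h5 := IsSubnormal.trans' h4.isSubnormal hKsub
      rwa [subgroupOf_map_subtype, inf_eq_left.mpr inf_le_left] at h5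
    · rintro ⟨k, hk, hkR⟩
      obtain ⟨i, hi⟩ := hNs ⟨_, hpow k hk hkR⟩
      refine ⟨i + 1, Subtype.ext ?_⟩
      have hi' : (k ^ s) ^ s ^ i = 1 := congrArg Subtype.val hi
      rw [← pow_mul] at hi'
      rw [pow_succ, mul_comm]
      exact hi'
  -- `K` centralises `N` and `R`
  have hKN : K ≤ centralizer (N : Set V) := hcm hKR
  have hKR : K ≤ centralizer (R : Set V) := by
    have h4 : ⁅⁅K, R⁆, K⁆ = ⊥ := by
      rw [commutator_comm K R, commutator_eq_bot_iff_le_centralizer]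
      exact hRK.trans (Subgroup.le_centralizer_iff.mp hKN)
    have h5 : ⁅⁅R, K⁆, K⁆ = ⊥ := by rwa [commutator_comm K R] at h4
    have h6 := commutator_commutator_eq_bot_of_rotate h4 h5
    rw [hKp, commutator_eq_bot_iff_le_centralizer] at h6
    exact h6
  refine ⟨⟨hKsub, ?_⟩, ?_⟩
  · -- quasisimple
    let g0 : K →* K.map π := π.subgroupMap K
    have hg0 : Function.Surjective g0 := π.subgroupMap_surjective K
    have hcen : center K = g0.ker := by
      apply le_antisymm
      · intro e he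
        rw [MonoidHom.mem_ker]
        have h4 : g0 e ∈ center (K.map π) := by
          rw [mem_center_iff]
          intro t
          obtain ⟨e', rfl⟩ := hg0 t
          rw [← map_mul, ← map_mul, mem_center_iff.1 he e']
        rwa [hTc, mem_bot] at h4
      · intro e he
        have h5 : π (e : V) = 1 := congrArg Subtype.val he
        have h6 : (e : V) ∈ R := (QuotientGroup.eq_one_iff (e : V)).1 h5
        rw [mem_center_iff]
        intro k
        exact Subtype.ext (mem_centralizer_iff.mp (hKR k.2) e h6).symm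
    refine ⟨isPerfect_iff.2 hKp, ?_⟩
    exact ((QuotientGroup.quotientMulEquivOfEq hcen).trans
      (QuotientGroup.quotientKerEquivOfSurjective g0 hg0)).isSimpleGroup
  · intro hc
    apply hne
    rintro _ ⟨y, hy, rfl⟩ _ ⟨k, hk, rfl⟩
    rw [← map_mul, ← map_mul, hc y hy k hk]

end gen

section ext

open Cfsg.Agent.H275.NS
open Cfsg.Agent.H15.Prj
open Cfsg.Agent.H9.Act
open Cfsg.Agent.H15.NG2
open Cfsg.Agent.Lib.CoprimeHyperplane (fix mem_fix conjHom)

variable {A : Type v} [CommGroup A] {V : Type u} [Group V] [Finite V] {p q : ℕ} [hpf : Fact p.Prime]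
  [hqf : Fact q.Prime] {φ : A →* MulAut V} {Y N R : Subgroup V}

theorem fxs_of_gen {T : Type u} [Group T] {P : Subgroup (MulAut T)} (hP : Nat.card P = p) {σ : MulAut T}
    (hσ : σ ∈ P) (hσ1 : σ ≠ 1) {x : T} (hx : σ x = x) : x ∈ fxs P := by
  intro τ hτ
  obtain ⟨n, hn⟩ := mem_zpowers_of_prime_card hP (g := ⟨σ, hσ⟩) (g' := ⟨τ, hτ⟩)
    fun h => hσ1 (congrArg Subtype.val h)
  have h3 : σ ^ n = τ := congrArg Subtype.val hn
  rw [← h3]
  have h4 : σ ∈ MulAction.stabilizer (MulAut T) x := hx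
  exact Subgroup.zpow_mem _ h4 n

/-- the preimage of `psi` of the quotient -/
theorem comap_psi_le {hi : Inv φ R} [R.Normal] (hR : Group.IsSolvable R)
    (hv' : NV p (Cfsg.Agent.H9.Act.quo φ R hi)) :
    (psi (Cfsg.Agent.H9.Act.quo φ R hi)).comap (QuotientGroup.mk' R) ≤ psi φ := by
  obtain ⟨h1, h2, h3⟩ := hv'.psi_mem
  refine le_psi ?_ ?_ ?_
  · intro a x hx
    exact h1 a _ hx
  · intro x hx
    exact h2 (mk_mem_fix_quo hx)
  · refine solv_of_map (QuotientGroup.mk' R) (solv_le (map_comap_le _ _) h3) ?_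
    rw [QuotientGroup.ker_mk']
    exact hR

/-- **LIFT for `q ∈ {2, 3, 5}`**, external form -/
theorem lift_q (hv : NV p φ) (hty : AllTy p V) (hq5 : q = 2 ∨ q = 3 ∨ q = 5) (hqp : q ≠ p)
    (hQK : ∀ (K : Type u) [Group K], IsSimpleGroup K → ¬ IsMulCommutative K → Sec V K → QK p q K)
    (hR : IsRad R) [hRn : R.Normal] [hNn : N.Normal] (hNi : Inv φ N) (hNs : IsPGroup q N)
    (hNm : ∀ W : Subgroup V, W.IsSubnormal → IsPGroup q W → W ≤ N) (hYq : IsPGroup q Y) (hYi : Inv φ Y)
    (hψY : psi φ ≤ normalizer (Y : Set V)) (hRY : ⁅R, Y⁆ ≤ N) (hquad : ⁅⁅N, Y⁆, Y⁆ = ⊥) (hYR : ¬ Y ≤ R) :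
    ∃ L : Subgroup V, IsComponent L ∧ ¬ ∀ y ∈ Y, ∀ x ∈ L, y * x = x * y := by
  have hi : Inv φ R := isRad_inv hR
  obtain ⟨hF, hcen⟩ := socle hR
  have hv' := hv.quo hi
  have hty' := hty.quo R
  have hk' := hty'.allKT
  have hN' : Inv (Cfsg.Agent.H9.Act.quo φ R hi) (layer (V ⧸ R)) := inv_layer
  set π := QuotientGroup.mk' R with hπ
  have hCY : fix φ ⊤ ≤ normalizer (Y : Set V) := hv.psi_mem.2.1.trans hψY
  have hq1 : Inv (Cfsg.Agent.H9.Act.quo φ R hi) (Y.map π) := by
    rintro a _ ⟨x, hx, rfl⟩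
    exact ⟨φ a x, hYi a x hx, rfl⟩
  have hq2 : fix (Cfsg.Agent.H9.Act.quo φ R hi) ⊤ ≤ normalizer ((Y.map π : Subgroup (V ⧸ R)) : Set (V ⧸ R)) :=
    (fix_quo_le hv.hA hv.cop hi ⊤).trans (map_le_normalizer_map _ hCY)
  -- a component which is not centralised
  obtain ⟨T, hT, hTne⟩ : ∃ T : Subgroup (V ⧸ R), IsComponent T ∧
      ¬ ∀ y ∈ Y.map π, ∀ t ∈ T, y * t = t * y := by
    by_contra hcon
    push Not at hcon
    apply hYR
    have h4 : Y.map π ≤ centralizer (layer (V ⧸ R) : Set (V ⧸ R)) := by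
      rw [Subgroup.le_centralizer_iff, ← hF.sup]
      refine sSup_le fun T hT => ?_
      rw [Subgroup.le_centralizer_iff]
      intro y hy
      rw [mem_centralizer_iff]
      intro t ht
      exact (hcon T hT y hy t ht).symm
    rw [hcen, le_bot_iff, Subgroup.map_eq_bot_iff, hπ, QuotientGroup.ker_mk'] at h4
    exact h4
  have hYT := fr_le hF hN' hv' hk' hqp (hYq.map _) hq1 hq2 hT
  obtain ⟨q', ht⟩ := hty' T (hF.simple _ hT) (hF.not_comm hT) (Sec.self _)
  have hqq : q = q' := by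
    by_contra h
    exact hTne (fr_cm hF hN' hv' hk' hqp (hYq.map _) hq1 hq2 hT ht.2.1 h hq5)
  subst hqq
  have hPc := hF.card_ind hN' hv'.hA hv'.good hv'.solv hT
  obtain ⟨Q, hQ, -⟩ := ht.2.2.1 T ⟨MulEquiv.refl _⟩ (ind (Cfsg.Agent.H9.Act.quo φ R hi) ⊤ T) hPc
    (hF.solv_fxs hN' hv'.solv hT)
  have hpT : ¬ p ∣ Nat.card T := fun hd => hv'.cop (hd.trans (card_subgroup_dvd_card T))
  have hcl := Fr.cl' hF hT
  have hcases := (fr_cases hF hN' hv' hqp (hYq.map π) hq1 hq2 hT hYT hQ).1 rfl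
  obtain ⟨K, hK, rfl⟩ := exists_calC_map hR hT
  have hYK : Y ≤ normalizer (K : Set V) := le_normalizer_calC hR hK hYT
  -- the element `a`
  obtain ⟨a, ha⟩ : ∃ a : A, im (Cfsg.Agent.H9.Act.quo φ R hi a) (K.map π) = K.map π ∧
      ∀ x ∈ K.map π, Cfsg.Agent.H9.Act.quo φ R hi a x = x → x ∈ cT (Cfsg.Agent.H9.Act.quo φ R hi) (K.map π) := by
    have hne : ind (Cfsg.Agent.H9.Act.quo φ R hi) ⊤ (K.map π) ≠ ⊥ := by
      intro h0
      rw [h0, Subgroup.card_bot] at hPc
      exact hpf.out.one_lt.ne hPc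
    obtain ⟨⟨σ, hσ⟩, hσ1⟩ := Subgroup.ne_bot_iff_exists_ne_one.mp hne
    obtain ⟨b, hb⟩ := hσ
    refine ⟨b, b.2.2, fun x hx hbx => ?_⟩
    rw [mem_cT]
    refine ⟨hx, fun a' ha' => ?_⟩
    have h1 : (⟨x, hx⟩ : K.map π) ∈ fxs (ind (Cfsg.Agent.H9.Act.quo φ R hi) ⊤ (K.map π)) := by
      refine fxs_of_gen hPc ⟨b, hb⟩ (fun h => hσ1 (Subtype.ext h)) ?_
      rw [← hb]
      exact Subtype.ext hbx
    exact mem_fxs_ind.mp h1 a' (mem_top _) ha'
  obtain ⟨haT, hafix⟩ := ha
  have hKa : im (φ a) K = K := by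
    refine map_inj_calC hR (calC_map_equiv (φ a) hK) hK ?_
    conv_rhs => rw [← haT]
    show (K.map (φ a).toMonoidHom).map π = (K.map π).map (Cfsg.Agent.H9.Act.quo φ R hi a).toMonoidHom
    rw [map_map, map_map]
    rfl
  have hKa' : ∀ k, φ a k ∈ K ↔ k ∈ K := by
    intro k
    constructor
    · intro h
      rw [← hKa] at h
      obtain ⟨k', hk', he⟩ := h
      exact (φ a).injective he ▸ hk'
    · intro h
      rw [← hKa]
      exact ⟨k, h, rfl⟩
  set C : Subgroup V := K ⊓ (cT (Cfsg.Agent.H9.Act.quo φ R hi) (K.map π)).comap π with hC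
  have hCψ : C ≤ psi φ := by
    refine inf_le_right.trans (le_trans ?_ (comap_psi_le hR.solv hv'))
    exact comap_mono (hF.iSup_cT_le_psi hN' hv' hT)
  have hCY' : C ≤ normalizer ((Y ⊓ K : Subgroup V) : Set V) :=
    H309.NS.le_normalizer_inf (hCψ.trans hψY) (inf_le_left.trans le_normalizer)
  have hCT : cT (Cfsg.Agent.H9.Act.quo φ R hi) (K.map π) ≤ C.map π := by
    intro x hx
    obtain ⟨k, hk, rfl⟩ := cT_le hx
    exact ⟨k, ⟨hk, hx⟩, rfl⟩
  -- `Y ⊓ K`
  have hYcT : ∀ y ∈ Y ⊓ K, π y ∈ cT (Cfsg.Agent.H9.Act.quo φ R hi) (K.map π) := by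
    have h1 : ((Y ⊓ K).map π).subgroupOf (K.map π) ≤ Q := by
      refine hQ.tq (((hYq.to_le inf_le_left).map π).comap_of_injective _ (Subgroup.subtype_injective _)) ?_
      rw [← subgroupOf_cT]
      refine subgroupOf_le_normalizer ?_ _
      exact hCT.trans (map_le_normalizer_map π hCY')
    intro y hy
    have h2 : (⟨π y, ⟨y, hy.2, rfl⟩⟩ : K.map π) ∈ fxs (ind (Cfsg.Agent.H9.Act.quo φ R hi) ⊤ (K.map π)) :=
      hQ.le (h1 (show π y ∈ (Y ⊓ K).map π from ⟨y, hy, rfl⟩))
    exact ⟨_, h2, rfl⟩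
  have hYne : ¬ Y ⊓ K ≤ R := by
    intro h0
    apply hTne
    rintro _ ⟨y, hy, rfl⟩
    obtain ⟨_, ⟨g, hg, rfl⟩, hact⟩ := hcases (π y) ⟨y, hy, rfl⟩
    have hg1 : g = 1 := by
      refine hQ.cen hpT hcl fun d hd => ?_
      have hd' : (d : V ⧸ R) ∈ cT (Cfsg.Agent.H9.Act.quo φ R hi) (K.map π) := ⟨d, hd, rfl⟩
      obtain ⟨c, hc, hcd⟩ := hCT hd'
      have h2 : ⁅y, c⁆ ∈ R := by
        apply h0
        constructor
        · have h3 := (mem_normalizer_iff.mp ((hCψ.trans hψY) hc) y⁻¹).mp (Y.inv_mem hy)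
          have h4 : ⁅y, c⁆ = y * (c * y⁻¹ * c⁻¹) := by rw [commutatorElement_def]; group
          rw [h4]
          exact Y.mul_mem hy h3
        · have h3 := (mem_normalizer_iff.mp (hYK hy) c).mp hc.1
          rw [commutatorElement_def]
          exact K.mul_mem h3 (K.inv_mem hc.1)
      have h3 : π ⁅y, c⁆ = 1 := (QuotientGroup.eq_one_iff _).2 h2
      rw [map_commutatorElement, commutatorElement_eq_one_iff_mul_comm, hcd] at h3
      have h4 := hact.2 d d.2
      rw [h3, mul_inv_cancel_right] at h4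
      apply Subtype.ext
      show (g : V ⧸ R) * d = d * g
      have h5 : (g : V ⧸ R) * d * (g : V ⧸ R)⁻¹ = d := h4.symm
      exact mul_inv_eq_iff_eq_mul.mp h5
    intro t ht
    have h4 := hact.2 t ht
    rw [hg1] at h4
    have h5 : π y * t * (π y)⁻¹ = t := by
      rw [h4]
      show (1 : V ⧸ R) * t * (1 : V ⧸ R)⁻¹ = t
      rw [one_mul, inv_one, mul_one]
    exact mul_inv_eq_iff_eq_mul.mp h5
  refine ⟨K, lift_gen hqf.out hR hNs hNm hRY hK hYK hTne ?_ ?_⟩
  · intro E _ _ hE he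
    exact ht.2.2.2 E hE he ⟨_, hPc, hF.solv_fxs hN' hv'.solv hT⟩
  · intro hKRN
    have hqh : QH p q φ a K R N (Y ⊓ K) C :=
      { perf := calC_perfect hK
        le := hKRN
        simple := fun W hWK hKW => by
          rcases hWK.eq_or_lt with h | h
          · right
            rw [h]
            exact le_sup_left
          · left
            have hn : (W.subgroupOf K).Normal := Subgroup.normal_subgroupOf_of_le_normalizer hKW
            have hsn : W.IsSubnormal := by
              have h4 := IsSubnormal.trans' hn.isSubnormal (calC_subnormal hK)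
              rwa [subgroupOf_map_subtype, inf_eq_left.mpr hWK] at h4
            exact hR.le_of_subnormal hsn (calC_solvable_of_lt hK hsn h)
        pow := hv.hA a
        Ka := hKa'
        Csol := by
          refine solv_of_map π (solv_le (map_mono inf_le_right |>.trans (map_comap_le _ _))
            (isSolvable_map (hF.solv_fxs hN' hv'.solv hT) _)) ?_
          rw [hπ, QuotientGroup.ker_mk']
          exact hR.solv
        mC := fun k hk hkR => by
          refine ⟨hk, hafix (π k) ⟨k, hk, rfl⟩ ?_⟩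
          exact (QuotientGroup.eq.mpr hkR).symm
        YK := inf_le_right
        Yfix := fun y hy => by
          have h1 := (mem_cT.mp (hYcT y hy)).2 a haT
          exact QuotientGroup.eq.mp h1.symm
        Yne := hYne
        Yq := hYq.to_le inf_le_left
        CY := hCY'
        Nq := hNs
        quad := by
          rw [eq_bot_iff, ← hquad]
          exact commutator_mono (commutator_mono le_rfl inf_le_left) inf_le_left }
    exact le_cent hqh (hQK _ (hF.simple _ hT) (hF.not_comm hT) (Sec.of_quo (Sec.self _))) hNi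

end ext

end Cfsg.Agent.H15.MB

namespace Cfsg.Agent.H9.NG.Ctg

open Subgroup
open scoped commutatorElement
open Cfsg (IsComponent IsComponentOf IsQuasisimple IsElementaryAbelian piCoreOf IsSignalizerFunctor signalizerInf pCore)
open Cfsg.Agent.H15.Prj
open Cfsg.Agent.H275.NS (psi psiOf)
open Cfsg.Agent.H309.NS (Mem)
open Cfsg.Agent.H9.NS (NV)
open Cfsg.Agent.H8.NS (cgA inv_subgroupOf)
open Cfsg.Agent.OddOrderLocal.PiCoreOf (piCoreOf_le piCoreOf_isPi le_piCoreOf isPi_singleton_iff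
  normalizer_le_normalizer_piCoreOf le_normalizer_piCoreOf)
open Cfsg.Agent.QTComp.Basic (IsRad exists_isRad)
open Cfsg.Agent.Lib.CoprimeHyperplane (fix mem_fix conjHom)

universe u

variable {G : Type u} [Group G] [Finite G] {p q : ℕ} [hp : Fact p.Prime] {A D F Z : Subgroup G}
  {θ : G → Subgroup G} {V : Subgroup G}

/-- `psi`, internal form -/
theorem psi_le (hA : IsElementaryAbelian p A) (hV : A ≤ normalizer (V : Set G)) (hp : ¬ p ∣ Nat.card V)
    (hg : H9.GenFam.Good p V) (hNS : H275.NS.AllNS p V) (hC : Group.IsSolvable ↥(V ⊓ centralizer (A : Set G))) :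
    letI := cgA hA
    psi (conjHom hV) ≤ (psiOf A V).subgroupOf V := by
  let _ := cgA hA
  obtain ⟨h1, h2, h3⟩ := (H275.NS.nv_int hA hV hp hg hNS hC).psi_mem
  have h4 : (psi (conjHom hV)).map V.subtype ≤ psiOf A V := by
    refine H275.NS.le_psiOf ⟨map_subtype_le _, ?_, ?_, H275.NS.isSolvable_map h3 _⟩
    · apply SignalizersComponents.GoldschmidtGen.le_normalizer_of_conj_mem
      rintro a ha _ ⟨x, hx, rfl⟩
      exact ⟨_, h1 ⟨a, ha⟩ x hx, rfl⟩
    · rintro x ⟨hxV, hxA⟩
      refine ⟨⟨x, hxV⟩, h2 ?_, rfl⟩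
      intro a _
      apply Subtype.ext
      show (a : G) * x * (a : G)⁻¹ = x
      rw [mem_centralizer_iff.1 hxA a a.2, mul_inv_cancel_right]
  intro x hx
  exact h4 ⟨x, hx, rfl⟩

/-- **LIFT** -/
theorem Z_le_core_of (c : Ctg p q A θ D F Z) (hV : Mem p A θ V) (hCV : signalizerInf A θ ≤ V)
    (h : ∀ L, IsComponentOf L V → Z ⊓ V ≤ centralizer (L : Set G)) : Z ⊓ V ≤ piCoreOf {q} V := by
  have hqf : Fact q.Prime := ⟨c.qp⟩
  by_cases hqp : q = p
  · subst hqp
    rw [bot_of_pgroup_cop hV.cop inf_le_right (c.Z_pg.to_le inf_le_left)]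
    exact bot_le
  let _ := cgA c.near.elem
  have hnv := c.nv hV
  have hv := H275.NS.nv_int hnv.elem hnv.inv hnv.cop hnv.good (c.ty V hV).allNS hnv.solv
  obtain ⟨R, hR⟩ := exists_isRad ↥V
  have hRn := hR.normal
  set S : Subgroup G := R.map V.subtype with hS
  have hSV : S ≤ V := map_subtype_le R
  have hnS : normalizer (V : Set G) ≤ normalizer (S : Set G) := by
    rw [hS]
    exact SignalizersComponents.MinCounterBasic.normalizer_le_normalizer_map _ hR.char
  have hSs : Group.IsSolvable S := H275.NS.isSolvable_map hR.solv V.subtype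
  have hSD : S ≤ D := c.rad_le hV hCV hSV hnS hSs
  by_contra hn
  have hVS : V ≤ normalizer (S : Set G) := le_normalizer.trans hnS
  have hSZ : S ⊓ Z ≤ piCoreOf {q} V := by
    have h1 : S ⊓ Z ≤ piCoreOf {q} S := by
      refine le_piCoreOf inf_le_left (H309.NS.le_normalizer_inf le_normalizer (hSD.trans c.D_nZ)) ?_
      exact (isPi_singleton_iff c.qp _).mpr (c.Z_pg.to_le inf_le_right)
    exact h1.trans (le_piCoreOf ((piCoreOf_le _ _).trans hSV)
      (hVS.trans (normalizer_le_normalizer_piCoreOf _ _)) (piCoreOf_isPi _ _))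
  have hOD : piCoreOf {q} V ≤ D := c.core_le hV hCV c.qp
  have hOq : IsPGroup q (piCoreOf {q} V) := (isPi_singleton_iff c.qp _).mp (piCoreOf_isPi _ _)
  have hAO : A ≤ normalizer ((piCoreOf {q} V : Subgroup G) : Set G) :=
    hV.inv.trans (normalizer_le_normalizer_piCoreOf _ _)
  set Y : Subgroup G := Z ⊓ V with hY
  have hAY : A ≤ normalizer (Y : Set G) := H309.NS.le_normalizer_inf c.A_nZ hV.inv
  have hDY : V ⊓ D ≤ normalizer (Y : Set G) :=
    H309.NS.le_normalizer_inf (inf_le_right.trans c.D_nZ) (inf_le_left.trans le_normalizer)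
  have hNn : ((piCoreOf {q} V).subgroupOf V).Normal :=
    Subgroup.normal_subgroupOf_of_le_normalizer (le_normalizer_piCoreOf _ _)
  have hcz : ∀ n ∈ D, ∀ y ∈ Z, n * y * n⁻¹ * y⁻¹ ∈ Z := fun n hn y hy =>
    Z.mul_mem ((mem_normalizer_iff.mp (c.D_nZ hn) _).mp hy) (Z.inv_mem hy)
  -- the conditions
  have hRY : ⁅R, Y.subgroupOf V⁆ ≤ (piCoreOf {q} V).subgroupOf V := by
    rw [commutator_le]
    intro r hr y hy
    rw [mem_subgroupOf]
    have hrS : (r : G) ∈ S := ⟨r, hr, rfl⟩
    refine hSZ ⟨?_, ?_⟩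
    · have h1 : ⁅r, y⁆ ∈ R := by
        rw [commutatorElement_def]
        have h2 : r * y * r⁻¹ * y⁻¹ = r * (y * r⁻¹ * y⁻¹) := by group
        rw [h2]
        exact R.mul_mem hr (hRn.conj_mem _ (R.inv_mem hr) y)
      exact ⟨_, h1, rfl⟩
    · exact hcz r (hSD hrS) y hy.1
  have hquad : ⁅⁅(piCoreOf {q} V).subgroupOf V, Y.subgroupOf V⁆, Y.subgroupOf V⁆ = ⊥ := by
    rw [eq_bot_iff, commutator_le]
    intro x hx y hy
    have hxZ : (x : G) ∈ Z := by
      have h1 : ⁅(piCoreOf {q} V).subgroupOf V, Y.subgroupOf V⁆ ≤ Z.subgroupOf V := by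
        rw [commutator_le]
        intro n hn y hy
        exact hcz n (hOD hn) y hy.1
      exact h1 hx
    rw [mem_bot, commutatorElement_eq_one_iff_mul_comm]
    exact Subtype.ext (c.Z_cm x hxZ y hy.1)
  have hYR : ¬ Y.subgroupOf V ≤ R := by
    intro h
    apply hn
    intro y hy
    exact hSZ ⟨⟨⟨y, hy.2⟩, h hy, rfl⟩, hy.1⟩
  have hNm : ∀ W : Subgroup V, W.IsSubnormal → IsPGroup q W → W ≤ (piCoreOf {q} V).subgroupOf V := by
    intro W hW hWq
    refine (SignalizersComponents.CompBasic.subnormal_pGroup_le_pCore hW hWq).trans ?_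
    have h1 : (pCore q V).map V.subtype ≤ piCoreOf {q} V := by
      refine le_piCoreOf (map_subtype_le _) ?_ ?_
      · exact le_normalizer.trans (SignalizersComponents.MinCounterBasic.normalizer_le_normalizer_map _
          (Lib.Cores.pCore_characteristic q))
      · exact (isPi_singleton_iff c.qp _).mpr ((Lib.Cores.pCore_isPGroup q).map _)
    intro x hx
    exact h1 ⟨x, hx, rfl⟩
  obtain ⟨L, hL, hLY⟩ := H15.MB.lift_q (hNn := hNn) hv (c.ty V hV) c.q3 hqp (c.quad V hV) hR
    (inv_subgroupOf c.near.elem hV.inv hAO) (hOq.comap_of_injective _ (Subgroup.subtype_injective _)) hNm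
    ((c.Z_pg.to_le inf_le_left).comap_of_injective _ (Subgroup.subtype_injective _))
    (inv_subgroupOf c.near.elem hV.inv hAY)
    ((psi_le c.near.elem hV.inv hnv.cop hnv.good (c.ty V hV).allNS hnv.solv).trans (by
      rw [← c.inf_D hV hCV]
      exact H275.NS.subgroupOf_le_normalizer hDY V)) hRY hquad hYR
  have hLV : IsComponentOf (L.map V.subtype) V := by
    refine ⟨map_subtype_le L, ?_⟩
    have h1 : (L.map V.subtype).subgroupOf V = L := Subgroup.comap_map_eq_self_of_injective V.subtype_injective L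
    rw [h1]
    exact hL
  apply hLY
  intro y hy x hx
  exact Subtype.ext (mem_centralizer_iff.mp (h _ hLV hy) x ⟨x, hx, rfl⟩).symm

end Cfsg.Agent.H9.NG.Ctg
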